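import Mathlib
import Cfsg.Agent.Lib.Helper99.GUSP.Defs2
import Cfsg.Agent.Lib.Helper94.Symp
import Cfsg.Agent.Lib.Helper40.SpImprim
import Cfsg.Agent.Lib.Helper40.Symp

/-!
# S5976 (team project GUSP): package [TESTB]

A test element of order `r` in `Sp_{2d}(q)` for an even order `i` of `q` modulo `r`: its
characteristic polynomial is `(X - 1)^(2d - i) * π` with `π` irreducible of degree `i`, and the
kernel of `π(x)` is a non-degenerate subspace of dimension `i`.
-/

set_option autoImplicit false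

namespace Cfsg.Agent.Lib.Helper79.GUSP

open Matrix Polynomial Cfsg.Agent.Lib.Helper99.GUSP
open Cfsg.Agent.Lib.Helper40 Cfsg.Agent.Lib.Helper40.PrimeOrderGL

universe u

/-- `aeval` of a matrix, as a linear map. -/
theorem testb_aeval_toLin {F : Type u} [Field F] {ι : Type} [Fintype ι] [DecidableEq ι]
    (M : Matrix ι ι F) (f : F[X]) :
    aeval (Matrix.toLin' M) f = Matrix.toLin' (aeval M f) :=
  Polynomial.aeval_algHom_apply (Matrix.toLinAlgEquiv' : Matrix ι ι F ≃ₐ[F] _).toAlgHom M f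

/-- [TESTB] -/
theorem pkgTestB : PkgTestB.{u} := by
  intro F _ _ p _ _ hodd d r hr hr2 hrp heven hle
  classical
  have hr' : Fact r.Prime := ⟨hr⟩
  have hp : p.Prime := Fact.out
  obtain ⟨i, hi⟩ : ∃ i, i = orderOf ((Fintype.card F : ℕ) : ZMod r) := ⟨_, rfl⟩
  rw [← hi] at heven hle ⊢
  obtain ⟨S, dg, hS, hSne, hdg, hdd, hev, -⟩ :=
    SpImprim.exists_data (F := F) (p := p) rfl r hr2 hrp i hi
  obtain ⟨π₀, hπ₀⟩ := hSne
  have hirr0 := hS.irred π₀ hπ₀
  have hdeg0 : π₀.natDegree = i := hS.deg π₀ hπ₀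
  have hipos : 0 < i := by
    rw [← hdeg0]
    exact hirr0.natDegree_pos
  obtain ⟨a, ha⟩ : ∃ a : S → ℕ, a = fun π => if π = ⟨π₀, hπ₀⟩ then 1 else 0 := ⟨_, rfl⟩
  have hasum : ∑ π, a π = 1 := by
    rw [ha]
    simp
  have hadg : ∀ π, a (dg π) = a π := by
    intro π
    rw [hev heven π]
  obtain ⟨g, hgr, hgχ⟩ := SpImprim.exists_sp_chi p hS hr hr2 dg hdg d a hadg
    (by rw [hasum]; omega)
  rw [hasum, mul_one] at hgχ
  have hχ : g.1.charpoly = (X - C 1) ^ (2 * d - i) * π₀ := by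
    rw [hgχ]
    unfold chi
    congr 1
    rw [Finset.prod_eq_single (⟨π₀, hπ₀⟩ : S)]
    · rw [ha]
      simp
    · intro b _ hb
      rw [ha]
      simp [hb]
    · intro h
      exact absurd (Finset.mem_univ _) h
  have hrF : (r : F) ≠ 0 := by
    intro h
    rw [CharP.cast_eq_zero_iff F p r] at h
    exact hrp ((Nat.prime_dvd_prime_iff_eq hp hr).1 h).symm
  -- the kernel decomposition
  have hss : Module.End.IsSemisimple (Matrix.toLin' g.1) :=
    SympWall.isSemisimple_of_pow_eq_one' g.1 r hrF hgr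
  have hmin : minpoly F (Matrix.toLin' g.1) ∣ (X - C 1) * π₀ := by
    have h1 : minpoly F (Matrix.toLin' g.1) ∣ ((X - C 1) * π₀) ^ (2 * d - i + 1) := by
      refine (LinearMap.minpoly_dvd_charpoly _).trans ?_
      rw [Matrix.charpoly_toLin', hχ, mul_pow]
      exact mul_dvd_mul (pow_dvd_pow _ (Nat.le_succ _)) (dvd_pow_self _ (Nat.succ_ne_zero _))
    exact (hss.minpoly_squarefree.dvd_pow_iff_dvd (Nat.succ_ne_zero _)).1 h1
  have hkill : aeval (Matrix.toLin' g.1) ((X - C 1) * π₀) = 0 := by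
    obtain ⟨c, hc⟩ := hmin
    rw [hc, map_mul, minpoly.aeval, zero_mul]
  have hcop : IsCoprime (X - C 1 : F[X]) π₀ := by
    rw [(irreducible_X_sub_C (1 : F)).coprime_iff_not_dvd]
    intro h
    exact SpExist.eval_one_ne hS π₀ hπ₀ (dvd_iff_isRoot.1 h)
  have hsup := Polynomial.sup_ker_aeval_eq_ker_aeval_mul_of_coprime (Matrix.toLin' g.1) hcop
  rw [hkill, LinearMap.ker_zero] at hsup
  have hdisj := Polynomial.disjoint_ker_aeval_of_isCoprime (Matrix.toLin' g.1) hcop
  have hfixeq : LinearMap.ker (aeval (Matrix.toLin' g.1) (X - C 1 : F[X]))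
      = SpImprim.fixS (Matrix.toLin' g.1) := by
    unfold SpImprim.fixS
    rw [map_sub, aeval_X, aeval_C, map_one]
  have hWeq : LinearMap.ker (aeval (Matrix.toLin' g.1) π₀)
      = LinearMap.ker (Matrix.toLin' (aeval g.1 π₀)) := by
    rw [testb_aeval_toLin]
  rw [hfixeq, hWeq] at hsup hdisj
  obtain ⟨W, hW⟩ : ∃ W : Submodule F (SI d → F),
      W = LinearMap.ker (Matrix.toLin' (aeval g.1 π₀)) := ⟨_, rfl⟩
  rw [← hW] at hsup hdisj
  have hfix : Module.finrank F (SpImprim.fixS (Matrix.toLin' g.1)) = 2 * d - i :=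
    SpImprim.finrank_fix_of_chi hS hrF g.1 hgr a (2 * d - i) hgχ
  have hfinW : Module.finrank F W = i := by
    have h1 := Submodule.finrank_sup_add_finrank_inf_eq (SpImprim.fixS (Matrix.toLin' g.1)) W
    rw [hsup, hdisj.eq_bot, finrank_bot, finrank_top, Module.finrank_fintype_fun_eq_card,
      Fintype.card_sum, Fintype.card_fin, hfix] at h1
    have h1' : d + d + 0 = 2 * d - i + Module.finrank F W := h1
    omega
  have hmemW : ∀ w, w ∈ W ↔ (aeval g.1 π₀) *ᵥ w = 0 := by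
    intro w
    rw [hW, LinearMap.mem_ker, Matrix.toLin'_apply]
  have hmemFix : ∀ u, u ∈ SpImprim.fixS (Matrix.toLin' g.1) ↔ g.1 *ᵥ u = u := by
    intro u
    rw [SpImprim.mem_fixS, Matrix.toLin'_apply]
  have hiso : ∀ u v, Cfsg.sympForm d F (g.1 *ᵥ u) (g.1 *ᵥ v) = Cfsg.sympForm d F u v :=
    fun u v => Helper13.sympForm_mulVec_of_mem d g.2 u v
  -- `Fix ⊥ W`
  have horth : ∀ u, g.1 *ᵥ u = u → ∀ w ∈ W, Cfsg.sympForm d F u w = 0 := by
    intro u hu w hw
    obtain ⟨s, t, hst⟩ := hcop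
    have h1 := congrArg (aeval g.1) hst
    rw [mul_comm s, map_add, map_mul, map_mul, map_sub, aeval_X, aeval_C, map_one, map_one] at h1
    have h2 := congrArg (fun A => A *ᵥ w) h1
    simp only [Matrix.add_mulVec, Matrix.one_mulVec] at h2
    rw [← Matrix.mulVec_mulVec _ _ (aeval g.1 π₀), (hmemW w).1 hw, Matrix.mulVec_zero, add_zero,
      ← Matrix.mulVec_mulVec, Matrix.sub_mulVec, Matrix.one_mulVec] at h2
    obtain ⟨w1, hw1⟩ : ∃ w1, w1 = (aeval g.1 s) *ᵥ w := ⟨_, rfl⟩
    rw [← hw1] at h2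
    have h3 : g.1 *ᵥ w1 = w + w1 := by
      rw [← h2]
      abel
    have h4 := hiso u w1
    rw [hu, h3, Helper94.sf_add_right] at h4
    linear_combination h4
  -- the conclusion
  have hxinv : g.1 * g.1 ^ (r - 1) = 1 := by
    rw [← pow_succ', Nat.sub_add_cancel hr.pos, hgr]
  have hxinv' : g.1 ^ (r - 1) * g.1 = 1 := by
    rw [← pow_succ, Nat.sub_add_cancel hr.pos, hgr]
  obtain ⟨x, hxg⟩ : ∃ x : GL (SI d) F, (x : Matrix (SI d) (SI d) F) = g.1 :=
    ⟨⟨g.1, g.1 ^ (r - 1), hxinv, hxinv'⟩, rfl⟩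
  refine ⟨x, π₀, ?_, ?_, ?_, hirr0, hdeg0, ?_, ?_⟩
  · rw [Helper94.mem_spGL_iff]
    intro u v
    rw [hxg]
    exact hiso u v
  · rw [hxg]
    exact hgr
  · intro z hz
    rw [hxg] at hz
    have h1 : aeval g.1 π₀ = algebraMap F (Matrix (SI d) (SI d) F) (π₀.eval z) := by
      rw [hz, ← Algebra.algebraMap_eq_smul_one,
        Polynomial.aeval_algebraMap_apply_eq_algebraMap_eval]
    by_cases hz0 : π₀.eval z = 0
    · have h2 := Polynomial.degree_eq_one_of_irreducible_of_root hirr0 hz0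
      have h3 := Polynomial.natDegree_eq_of_degree_eq_some h2
      rw [hdeg0] at h3
      rw [h3] at heven
      exact absurd heven (by decide)
    · have hWbot : W = ⊥ := by
        rw [Submodule.eq_bot_iff]
        intro w hw
        rw [hmemW, h1, Algebra.algebraMap_eq_smul_one, Matrix.smul_mulVec,
          Matrix.one_mulVec] at hw
        rcases smul_eq_zero.1 hw with h | h
        · exact absurd h hz0
        · exact h
      rw [hWbot, finrank_bot] at hfinW
      omega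
  · rw [hxg, ← hW, hdeg0]
    exact hfinW
  · rw [hxg, ← hW]
    intro w hw hww
    by_contra hw0
    obtain ⟨v, hv⟩ := exists_sympForm_eq_one d w hw0
    have hvtop : v ∈ (⊤ : Submodule F (SI d → F)) := Submodule.mem_top
    rw [← hsup, Submodule.mem_sup] at hvtop
    obtain ⟨u, hu, w', hw', rfl⟩ := hvtop
    rw [Helper94.sf_add_right, hww w' hw', add_zero, Helper94.sf_swap,
      horth u ((hmemFix u).1 hu) w hw, neg_zero] at hv
    exact zero_ne_one hv

end Cfsg.Agent.Lib.Helper79.GUSP
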